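import Cfsg.Agent.H363.U4.LinThree

/-!
# Orders of elements of `PSL_4(q)` and `PSU_4(q)`, `q` a power of a prime `p ≥ 5`, divisible by `p` (helper363)

`Lin.spec_p` : `p ∣ o(g)` implies `o(g) ∣ p (q ^ 2 - 1) / d` or `o(g) ∣ p (q - e)`, `d = gcd (4, q - e)`.
-/

set_option autoImplicit false
set_option linter.unusedSectionVars false

namespace Cfsg.Agent.H363.U4

open Polynomial Function Cfsg.Agent.H403 NumTop Cfsg.Agent.H363.L4

section

variable {F : Type*} [Field F] [Fintype F] {E : Type*} [Field E] [IsAlgClosed E] [Algebra F E]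
variable {e : Bool} {q : ℕ} {L : Type*} [Group L]

/-- **The orders divisible by the characteristic.** -/
theorem Lin.spec_p {p : ℕ} (hp : p.Prime) (hp5 : 5 ≤ p) [CharP F p] (hL : Lin E L e 4 q F)
    (hF : Fintype.card F = q ^ (cond e 0 1 + 1)) (g : L) (h0 : 0 < orderOf g) (hg : p ∣ orderOf g) :
    orderOf g ∣ p * ((q ^ 2 - 1) / Nat.gcd 4 (AA e 1 q)) ∨ orderOf g ∣ p * AA e 1 q := by
  classical
  obtain ⟨M, hdet, hM, hMk⟩ := hL g
  obtain ⟨b', k, hk, hN⟩ := Nat.exists_eq_pow_mul_and_not_dvd (n := orderOf g) h0.ne' p hp.ne_one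
  have hk0 : 0 < k := Nat.pos_of_ne_zero fun h => hk (by rw [h]; exact dvd_zero p)
  obtain ⟨ζ, hζ⟩ := (hMk (k * p ^ b')).1 (by rw [mul_comm, ← hN]; exact pow_orderOf_eq_one g)
  obtain ⟨c, hc0, hcx, hc⟩ := exists_const hp hF hM hζ
  have hcE : algebraMap F E c ≠ 0 := by
    rw [Ne, map_eq_zero]; exact hc0
  have hcard := card_evs4 (E := E) M
  have hq2 : 2 ≤ q := two_le_of_card hF
  -- `q` is odd
  obtain ⟨a, ha⟩ : ∃ a, q = 2 * a + 1 := by
    obtain ⟨k, hk, hFk⟩ := isPow (F := F) hp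
    have h1 : Fintype.card F % 2 = 1 := by
      rw [hFk, Nat.pow_mod, hp.eq_two_or_odd.resolve_left (by omega)]
      norm_num
    have h2 : ¬ 2 ∣ q := fun h => by
      have h3 : 2 ∣ Fintype.card F := by rw [hF]; exact h.trans (dvd_pow_self q (Nat.succ_ne_zero _))
      omega
    exact ⟨q / 2, by omega⟩
  set d := Nat.gcd 4 (AA e 1 q) with hd
  have hd0 : 0 < d := Nat.gcd_pos_of_pos_left _ (by norm_num)
  -- integers
  obtain ⟨b, hb⟩ : ∃ b : ℤ, xv e q = 2 * b + 1 := by
    unfold xv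
    cases e
    · exact ⟨-(a : ℤ) - 1, by simp [ha]; ring⟩
    · exact ⟨a, by simp [ha]⟩
  have hsq : ((q ^ 2 - 1 : ℕ) : ℤ) = 4 * (b * (b + 1)) := by
    have h1 : (xv e q) ^ 2 = (q : ℤ) ^ 2 := by
      unfold xv
      cases e <;> simp
    have h2 : 1 ≤ q ^ 2 := Nat.one_le_pow _ _ (by omega)
    push_cast [Nat.cast_sub h2]
    rw [← h1, hb]
    ring
  have hdb : (d : ℤ) ∣ 2 * b := by
    have h1 : d ∣ AA e 1 q := Nat.gcd_dvd_right _ _
    rw [← AA_natAbs (by omega : 1 ≤ q), pow_one] at h1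
    have h2 := Int.natCast_dvd.2 h1
    rwa [hb, add_sub_cancel_right] at h2
  have hd2 : 2 ∣ d := by
    refine Nat.dvd_gcd (by norm_num) ?_
    have h1 : ((2 : ℕ) : ℤ) ∣ xv e q - 1 := ⟨b, by rw [hb]; push_cast; ring⟩
    have h2 := Int.natCast_dvd.1 h1
    rw [← AA_natAbs (by omega : 1 ≤ q), pow_one]
    exact h2
  have hd4 : d ∣ 4 := Nat.gcd_dvd_left _ _
  -- the first exponent
  set K := (q ^ 2 - 1) / d with hK
  have hdK : K * d = q ^ 2 - 1 := by
    apply Nat.div_mul_cancel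
    have h1 : (d : ℤ) ∣ ((q ^ 2 - 1 : ℕ) : ℤ) := by
      rw [hsq]
      obtain ⟨c, hc⟩ := hdb
      exact ⟨2 * c * (b + 1), by linear_combination (2 * (b + 1)) * hc⟩
    exact_mod_cast h1
  have hK0 : 0 < K := by
    apply Nat.pos_of_ne_zero
    intro h
    rw [h, zero_mul] at hdK
    have : 2 ^ 2 ≤ q ^ 2 := Nat.pow_le_pow_left hq2 2
    omega
  have hKZ : (K : ℤ) * d = 4 * (b * (b + 1)) := by
    rw [← hsq, ← hdK]
    push_cast
    ring
  -- `2 (b + 1) * j = K`
  obtain ⟨j, hj⟩ : ∃ j : ℤ, 2 * b = d * j := hdb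
  have hKj : (K : ℤ) = 2 * (b + 1) * j := by
    have h1 : (d : ℤ) ≠ 0 := by exact_mod_cast hd0.ne'
    apply mul_right_cancel₀ h1
    rw [hKZ]
    linear_combination (2 * (b + 1)) * hj
  set R := evs E M with hR
  set x' := xv e q with hx'
  -- it suffices that the `m`-th powers are equal, and fixed
  have key : ∀ (y : E) (m : ℕ), y ∈ R → 0 < m → (y ^ m) ^ x' = y ^ m → (∀ z ∈ R, z ^ m = y ^ m) →
      orderOf g ∣ p * m := by
    intro y m hy hm hyx hall
    have hy0 := hM.ne_zero hy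
    obtain ⟨c', hc'⟩ := mem_range_of_fix (F := F) (e := e) (q := q) hF (pow_ne_zero m hy0) hyx
    have h1 := orderOf_dvd_of_const (E := E) hp hMk (a := 1) (k := m) (c := c') hm
      (fun z hz => by rw [hall z hz, hc']) (fun y _ => by
        rw [pow_one]
        exact (Multiset.count_le_card y R).trans (by omega))
    rwa [pow_one, mul_comm] at h1
  -- a double eigenvalue
  have hdup : ¬ R.Nodup := by
    intro hnd
    have h1 := orderOf_dvd_of_pow_eq_one ((hMk k).2 ⟨c, pow_eq_smul_of_nodup E hk0 hnd hc⟩)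
    exact hk (hg.trans h1)
  rw [Multiset.nodup_iff_count_le_one] at hdup
  push Not at hdup
  obtain ⟨μ, hμ⟩ := hdup
  have hμR : μ ∈ R := Multiset.count_pos.1 (by omega)
  have hμ0 := hM.ne_zero hμR
  have hprod : R.prod = 1 := by rw [hR, prod_evs, hdet, map_one]
  obtain ⟨T, hT⟩ := Multiset.le_iff_exists_add.1 (Multiset.le_count_iff_replicate_le.1 (show 2 ≤ R.count μ by omega))
  have hTc : Multiset.card T = 2 := by
    have := congrArg Multiset.card hT
    rw [Multiset.card_add, Multiset.card_replicate, hcard] at this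
    omega
  have hfixb : ∀ z ∈ R, z ^ x' = z → z ^ (2 * b) = 1 := by
    intro z hz hzx
    have hz0 := hM.ne_zero hz
    have h1 : z ^ (2 * b) * z = z := by rw [← zpow_add_one₀ hz0, ← hb, hzx]
    exact mul_eq_right₀ hz0 |>.1 h1
  by_cases hμx : μ ^ x' = μ
  · -- `μ` is fixed
    obtain ⟨ν, ρ, hνρ⟩ := Multiset.card_eq_two.1 hTc
    subst hνρ
    have hνR : ν ∈ R := by rw [hT]; simp
    have hρR : ρ ∈ R := by rw [hT]; simp
    have hν0 := hM.ne_zero hνR
    have hmap := hM.map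
    rw [hT, Multiset.map_add, Multiset.map_replicate, hμx] at hmap
    have hmap2 := add_left_cancel hmap
    simp only [Multiset.insert_eq_cons, Multiset.map_cons, Multiset.map_singleton] at hmap2
    have hall : ∀ {P : E → Prop}, P μ → P ν → P ρ → ∀ z ∈ R, P z := by
      intro P h1 h2 h3 z hz
      rw [hT, Multiset.mem_add] at hz
      rcases hz with hz | hz
      · rw [Multiset.eq_of_mem_replicate hz]; exact h1
      · simp only [Multiset.insert_eq_cons, Multiset.mem_cons, Multiset.mem_singleton] at hz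
        rcases hz with rfl | rfl
        · exact h2
        · exact h3
    by_cases hνx : ν ^ x' = ν
    · -- all eigenvalues are fixed
      right
      rw [hνx, Multiset.cons_inj_right, Multiset.singleton_inj] at hmap2
      have h1 : ∀ z ∈ R, z ^ AA e 1 q = 1 :=
        hall (P := fun z => z ^ AA e 1 q = 1) (pow_AA_of_fix (by omega) hμ0 hμx) (pow_AA_of_fix (by omega) hν0 hνx)
          (pow_AA_of_fix (by omega) (hM.ne_zero hρR) hmap2)
      exact key μ _ hμR (AA_pos (i := 1) hq2 le_rfl) (by rw [h1 μ hμR, one_zpow]) fun z hz => by rw [h1 z hz, h1 μ hμR]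
    · left
      have hνρ : ν ^ x' = ρ := by
        have h1 : ν ^ x' ∈ (ν ::ₘ {ρ} : Multiset E) := by
          rw [← hmap2]; exact Multiset.mem_cons_self _ _
        rw [Multiset.mem_cons, Multiset.mem_singleton] at h1
        exact h1.resolve_left hνx
      have hp2 : μ ^ (2 : ℤ) * (ν * ρ) = 1 := by
        rw [hT, Multiset.prod_add, Multiset.prod_replicate] at hprod
        have : μ ^ (2 : ℤ) = μ ^ 2 := zpow_natCast μ 2
        rw [this]
        simpa using hprod
      rw [← hνρ, ← zpow_one_add₀ hν0, hb, show (1 : ℤ) + (2 * b + 1) = 2 * (b + 1) by ring] at hp2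
      have h3 : ν ^ (2 * (b + 1)) = μ ^ (-2 : ℤ) := by
        rw [zpow_neg]
        exact eq_inv_of_mul_eq_one_right hp2
      have hμb := hfixb μ hμR hμx
      -- `ν ^ K = μ ^ K`
      have hνK : ν ^ K = μ ^ K := by
        rw [← zpow_natCast, ← zpow_natCast, hKj, zpow_mul, h3, ← zpow_mul]
        -- `μ ^ (4 j) = 1`, `μ ^ (2 b) = 1`
        have h4 : μ ^ (4 * j) = 1 := by
          obtain ⟨m, hm⟩ := hd4
          have h5 : (4 : ℤ) * j = m * (2 * b) := by
            rw [hj]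
            have : (4 : ℤ) = d * m := by exact_mod_cast hm
            rw [this]; ring
          rw [h5, mul_comm, zpow_mul, hμb, one_zpow]
        have h5 : (2 : ℤ) * (b + 1) * j = -2 * j + (4 * j + (2 * b) * j) := by ring
        rw [h5, zpow_add₀ hμ0, zpow_add₀ hμ0, h4, zpow_mul μ (2 * b) j, hμb, one_zpow, mul_one, mul_one]
      have hμK : (μ ^ K) ^ x' = μ ^ K := by rw [← zpow_pow_comm, hμx]
      refine key μ K hμR hK0 hμK (hall rfl hνK ?_)
      rw [← hνρ, zpow_pow_comm, hνK, hμK]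
  · -- `μ` is not fixed
    left
    have h1 : R.count (μ ^ x') = R.count μ := by
      conv_lhs => rw [← hM.map]
      exact Multiset.count_map_eq_count' (fun z => z ^ x') R hM.inj μ
    have h2 : Multiset.replicate 2 (μ ^ x') ≤ T := by
      rw [← Multiset.le_count_iff_replicate_le]
      have h3 := congrArg (Multiset.count (μ ^ x')) hT
      rw [Multiset.count_add, Multiset.count_replicate, if_neg (Ne.symm hμx)] at h3
      omega
    have h3 : Multiset.replicate 2 (μ ^ x') = T :=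
      Multiset.eq_of_le_of_card_le h2 (by rw [hTc, Multiset.card_replicate])
    have hp2 : μ ^ (4 * (b + 1)) = 1 := by
      rw [hT, ← h3, Multiset.prod_add, Multiset.prod_replicate, Multiset.prod_replicate] at hprod
      rw [← hprod, ← zpow_natCast, ← zpow_natCast, ← zpow_mul, ← zpow_add₀ hμ0, hb]
      congr 1
      push_cast
      ring
    have h6 : (μ ^ K) ^ (2 * b) = 1 := by
      -- `K * 2 b = 2 (b + 1) j * d j`, `d j = 2 b`
      obtain ⟨m, hm⟩ := hd2
      have h7 : (K : ℤ) * (2 * b) = (4 * (b + 1)) * (m * j ^ 2) := by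
        rw [hKj, hj, hm]
        push_cast
        ring
      rw [← zpow_natCast, ← zpow_mul, h7, zpow_mul, hp2, one_zpow]
    have h8 : (μ ^ K) ^ x' = μ ^ K := by
      rw [hb, zpow_add_one₀ (pow_ne_zero _ hμ0), h6, one_mul]
    refine key μ K hμR hK0 h8 fun z hz => ?_
    rw [hT, ← h3, Multiset.mem_add] at hz
    rcases hz with hz | hz
    · rw [Multiset.eq_of_mem_replicate hz]
    · rw [Multiset.eq_of_mem_replicate hz, zpow_pow_comm, h8]

end

section

variable {F : Type*} [Field F] [Fintype F] {q p : ℕ}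

/-- `PSU_4(q)`, `q = 3` modulo 4 -/
theorem psu_spec_p (hp : p.Prime) (hp5 : 5 ≤ p) [CharP F p] (hF : Fintype.card F = q ^ 2) (hq4 : q % 4 = 3)
    (g : Cfsg.PSU 4 F q) (hg : p ∣ orderOf g) : orderOf g ∣ p * ((q ^ 2 - 1) / 4) ∨ orderOf g ∣ p * (q + 1) := by
  have h := Lin.spec_p (E := AlgebraicClosure F) (e := false) hp hp5 (lin_psu hF (by norm_num)) (by simpa using hF) g
    (orderOf_pos g) hg
  rw [AA_one] at h
  have h4 : Nat.gcd 4 (cond false (q - 1) (q + 1)) = 4 := by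
    apply Nat.gcd_eq_left
    change 4 ∣ q + 1
    omega
  rw [h4] at h
  exact h

/-- no elements of order `3 p (q + 1)_2` if `q = 3` modulo 4, `q = 1` modulo 3 -/
theorem psu_not_three (hp : p.Prime) (hp5 : 5 ≤ p) [CharP F p] (hF : Fintype.card F = q ^ 2) (hq4 : q % 4 = 3)
    (hq3 : q % 3 = 1) {a : ℕ} (ha : 2 ^ a ∣ q + 1) (ha' : ¬ 2 ^ (a + 1) ∣ q + 1) (g : Cfsg.PSU 4 F q) :
    ¬ 3 * p * 2 ^ a ∣ orderOf g := by
  intro h
  have hpg : p ∣ orderOf g := (Dvd.intro (3 * 2 ^ a) (by ring)).trans h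
  rcases psu_spec_p hp hp5 hF hq4 g hpg with h1 | h1
  · have h2 := h.trans h1
    rw [show 3 * p * 2 ^ a = p * (3 * 2 ^ a) by ring] at h2
    have h3 := (dvd_mul_left (2 ^ a) 3).trans (Nat.dvd_of_mul_dvd_mul_left hp.pos h2)
    -- `(q ^ 2 - 1) / 4 = (q + 1) / 2 * ((q - 1) / 2)`, the last factor is odd
    obtain ⟨b, rfl⟩ : ∃ b, q = 4 * b + 3 := ⟨q / 4, by omega⟩
    have h4 : ((4 * b + 3) ^ 2 - 1) / 4 = (2 * b + 2) * (2 * b + 1) := by
      have : (4 * b + 3) ^ 2 = 4 * ((2 * b + 2) * (2 * b + 1)) + 1 := by ring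
      rw [this, Nat.add_sub_cancel, Nat.mul_div_cancel_left _ (by norm_num)]
    rw [h4] at h3
    have h5 : Nat.Coprime (2 ^ a) (2 * b + 1) :=
      Nat.Coprime.pow_left _ (Nat.coprime_two_left.2 ⟨b, rfl⟩)
    have h6 := h5.dvd_of_dvd_mul_right h3
    apply ha'
    rw [pow_succ]
    have h7 := Nat.mul_dvd_mul_right h6 2
    rwa [show (2 * b + 2) * 2 = 4 * b + 3 + 1 by ring] at h7
  · have h2 := h.trans h1
    rw [show 3 * p * 2 ^ a = p * (3 * 2 ^ a) by ring] at h2
    have h3 := (dvd_mul_right 3 (2 ^ a)).trans (Nat.dvd_of_mul_dvd_mul_left hp.pos h2)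
    omega

end

end Cfsg.Agent.H363.U4
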